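import Cfsg.Agent.Lib.ToddCox.J3C3.Data
set_option autoImplicit false
set_option maxRecDepth 100000
namespace Cfsg.Agent.Lib.ToddCox.J3C3
theorem wordsGood : allBelow (wordsOK W (relR Rb inv) inv sp) nW 1 = true := by decide +kernel
theorem d0 : allBits (fun k => bif Nat.blt k 33 then chkDef Eo inv k else true) 13 0 = true := by decide +kernel
theorem s0 : chkStream Eo inv W isH 1 33 0x8000003c00001c00000d000006000002c000014000009000004000001c00000c000005000002000000c0000040000010000000000003000003800002c00001e00001300000b800006c00003e00002300001380000ac00005e00003300001b80000ec00007e000000 = true := by decide +kernel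
theorem c0 : Covered Eo inv W isH 33 34 := covered_of_stream 1 33 _ s0
def M0 : List ℕ := [nat_lit 0xe800003400004000001100000d800003000003c00001000000e000003c00003200000b00000d000003800002e00000a00000a800002400003000000d000009800002000002c00000c00000a000002c000022000007000009000002800001e0000060000068000014000020000009000005800001000001c000008000006000001c000012000003000005000001800000e0000020000028000004000010000005000001800000000000c000004000002000000c0000020000000000010000008000000000001,nat_lit 0x1e800007400008000002100001d800007000007c00002000001e000007c00007200001b00001d000007800006e00001a00001a800006400007000001d000019800006000006c00001c00001a000006c000062000017000019000006800005e0000160000168000054000060000019000015800005000005c000018000016000005c000052000013000015000005800004e0000120000128000044000050000015000011800004000004c000014000012000004c00004200000f000011000004800003e00000e]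
theorem l0 : chkPointChunks Eo cF (2 * nEv) N ys 16 M0 0 = true := by decide +kernel
theorem k0 : LinksOK Eo cF (2 * nEv) N ys 0 32 := linksOK_of_chunks 16 M0 0 32 rfl l0
theorem l1 : chkPoints Eo cF (2 * nEv) N ys 2 32 0x21000008000008200001f000021800008400007e00001e = true := by decide +kernel
theorem k1 : LinksOK Eo cF (2 * nEv) N ys 32 34 := linksOK_of_points 2 32 _ l1
end Cfsg.Agent.Lib.ToddCox.J3C3
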